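import Cfsg.Agent.Co2.P.Tab0

set_option autoImplicit false
set_option maxRecDepth 100000
set_option Elab.async false

namespace Cfsg.Co2.P

open Cfsg.H6

theorem p0 : allR (ptU img) 0 128 = true := by decide +kernel

theorem p1 : allR (ptU img) 128 128 = true := by decide +kernel

theorem p2 : allR (ptU img) 256 128 = true := by decide +kernel

theorem p3 : allR (ptU img) 384 128 = true := by decide +kernel

theorem p4 : allR (ptU img) 512 128 = true := by decide +kernel

theorem p5 : allR (ptU img) 640 128 = true := by decide +kernel

theorem p6 : allR (ptU img) 768 128 = true := by decide +kernel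

theorem p7 : allR (ptU img) 896 128 = true := by decide +kernel

end Cfsg.Co2.P
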