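import Cfsg.Agent.Co2.P.Tab0

set_option autoImplicit false
set_option maxRecDepth 100000
set_option Elab.async false

namespace Cfsg.Co2.P

open Cfsg.H6

theorem p8 : allR (ptU img) 1024 128 = true := by decide +kernel

theorem p9 : allR (ptU img) 1152 128 = true := by decide +kernel

theorem p10 : allR (ptU img) 1280 128 = true := by decide +kernel

theorem p11 : allR (ptU img) 1408 128 = true := by decide +kernel

theorem p12 : allR (ptU img) 1536 128 = true := by decide +kernel

theorem p13 : allR (ptU img) 1664 128 = true := by decide +kernel

theorem p14 : allR (ptU img) 1792 128 = true := by decide +kernel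

theorem p15 : allR (ptU img) 1920 128 = true := by decide +kernel

end Cfsg.Co2.P
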