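import Cfsg.Agent.Co2.P.Tab0

set_option autoImplicit false
set_option maxRecDepth 100000
set_option Elab.async false

namespace Cfsg.Co2.P

open Cfsg.H6

theorem p16 : allR (ptU img) 2048 128 = true := by decide +kernel

theorem p17 : allR (ptU img) 2176 124 = true := by decide +kernel

theorem q0_0 : allR (ivl img Ws 1 892) 1 891 = true := by decide +kernel

theorem q1_0 : allR (ivl img Ws 892 2300) 892 1408 = true := by decide +kernel

end Cfsg.Co2.P
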