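import Cfsg.Agent.Co2.P.Pres
import Cfsg.Agent.Co2.P.Chk0
import Cfsg.Agent.Co2.P.Chk1
import Cfsg.Agent.Co2.P.Chk2

set_option autoImplicit false
set_option maxRecDepth 100000
set_option Elab.async false

namespace Cfsg.Co2.P

open Cfsg.H6

theorem ptOK : PtOK img 2300 LS EQS := ptOK_of_chk fun p h1 h2 => by
  rw [← ptU_eq]
  exact (range_join (range_join (range_join (range_join (allR_range p0 (by norm_num : 0 + 128 = 128)) (allR_range p1 (by norm_num : 128 + 128 = 256))) (range_join (allR_range p2 (by norm_num : 256 + 128 = 384)) (allR_range p3 (by norm_num : 384 + 128 = 512)))) (range_join (range_join (allR_range p4 (by norm_num : 512 + 128 = 640)) (allR_range p5 (by norm_num : 640 + 128 = 768))) (range_join (allR_range p6 (by norm_num : 768 + 128 = 896)) (range_join (allR_range p7 (by norm_num : 896 + 128 = 1024)) (allR_range p8 (by norm_num : 1024 + 128 = 1152)))))) (range_join (range_join (range_join (allR_range p9 (by norm_num : 1152 + 128 = 1280)) (allR_range p10 (by norm_num : 1280 + 128 = 1408))) (range_join (allR_range p11 (by norm_num : 1408 + 128 = 1536))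 (allR_range p12 (by norm_num : 1536 + 128 = 1664)))) (range_join (range_join (allR_range p13 (by norm_num : 1664 + 128 = 1792)) (allR_range p14 (by norm_num : 1792 + 128 = 1920))) (range_join (allR_range p15 (by norm_num : 1920 + 128 = 2048)) (range_join (allR_range p16 (by norm_num : 2048 + 128 = 2176)) (allR_range p17 (by norm_num : 2176 + 124 = 2300))))))) p h1 h2

theorem hrep : repOK 31 53206320320083115796502214552783413060461247639578808291150702859268522240 LS EQS D P.R = true := by decide +kernel

theorem rep : Good (evR img 2300 31) 53206320320083115796502214552783413060461247639578808291150702859268522240 ∧ Rels (evR img 2300 31) P.R ∧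
    IsAct (MonoidHom.id _) (evR img 2300 31) img 2300 31 := rep_sound ptOK hrep

theorem iv0 {G : Type*} [Group G] {φ : G →* Equiv.Perm ℕ} {ev : ℕ → G} (h : IsAct φ ev img 2300 31) :
    orb φ (gen ev Ws) 1 = Set.Ico 1 892 :=
  ivl_sound h (by decide +kernel) (allR_range q0_0 (by norm_num : 1 + 891 = 892))

theorem iv1 {G : Type*} [Group G] {φ : G →* Equiv.Perm ℕ} {ev : ℕ → G} (h : IsAct φ ev img 2300 31) :
    orb φ (gen ev Ws) 892 = Set.Ico 892 2300 :=
  ivl_sound h (by decide +kernel) (allR_range q1_0 (by norm_num : 892 + 1408 = 2300))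


end Cfsg.Co2.P
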